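import Cfsg.Prelude.Def_E6

/-! Pre-generates on-demand lemmas for the definitions, so that importers share one copy. -/

theorem CfsgLib.Eq.Def_E6.touch : True := by
  have := (fun _ => trivial : _ → True) @Cfsg.Lie.I27.eq_1
  have := (fun _ => trivial : _ → True) @Cfsg.Lie.I27.eq_def
  have := (fun _ => trivial : _ → True) @Cfsg.Lie.I27.congr_simp
  have := (fun _ => trivial : _ → True) @Cfsg.Lie.IsoE6.eq_1.{0}
  have := (fun _ => trivial : _ → True) @Cfsg.Lie.IsoE6.eq_def.{0}
  have := (fun _ => trivial : _ → True) @Cfsg.Lie.IsoE6.congr_simp.{0}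
  have := (fun _ => trivial : _ → True) @Cfsg.Lie.cubicT.eq_1.{0}
  have := (fun _ => trivial : _ → True) @Cfsg.Lie.cubicT.eq_def.{0}
  have := (fun _ => trivial : _ → True) @Cfsg.Lie.cubicT.congr_simp.{0}
  have := (fun _ => trivial : _ → True) @Cfsg.Lie.E6.eq_1.{0}
  have := (fun _ => trivial : _ → True) @Cfsg.Lie.E6.eq_def.{0}
  have := (fun _ => trivial : _ → True) @Cfsg.Lie.E6.congr_simp.{0}
  have := (fun _ => trivial : _ → True) @Cfsg.Lie.mat3.eq_1.{0}
  have := (fun _ => trivial : _ → True) @Cfsg.Lie.mat3.eq_def.{0}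
  have := (fun _ => trivial : _ → True) @Cfsg.Lie.mat3.congr_simp.{0}
  have := (fun _ => trivial : _ → True) @Cfsg.Lie.funStab.eq_1.{0}
  have := (fun _ => trivial : _ → True) @Cfsg.Lie.funStab.eq_def.{0}
  have := (fun _ => trivial : _ → True) @Cfsg.Lie.funStab.congr_simp.{0}
  have := (fun _ => trivial : _ → True) @Cfsg.Lie.E6univ.eq_1.{0}
  have := (fun _ => trivial : _ → True) @Cfsg.Lie.E6univ.eq_def.{0}
  have := (fun _ => trivial : _ → True) @Cfsg.Lie.E6univ.congr_simp.{0}
  trivial
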