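import Cfsg.Prelude.Def_QuasithinSetup
import Cfsg.Agent.Eq.Def_Quasithin
import Cfsg.Agent.Eq.Def_PLocal
import Cfsg.Agent.Eq.Def_Spor_He

/-! Pre-generates on-demand lemmas for the definitions, so that importers share one copy. -/

theorem CfsgLib.Eq.Def_QuasithinSetup.touch : True := by
  have := (fun _ => trivial : _ → True) @Cfsg.IsLieRankTwoCharTwoLargeField.eq_1.{0}
  have := (fun _ => trivial : _ → True) @Cfsg.IsLieRankTwoCharTwoLargeField.eq_def.{0}
  have := (fun _ => trivial : _ → True) @Cfsg.IsLieRankTwoCharTwoLargeField.congr_simp.{0}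
  have := (fun _ => trivial : _ → True) @Cfsg.agConjFamily.eq_1.{0}
  have := (fun _ => trivial : _ → True) @Cfsg.agConjFamily.eq_def.{0}
  have := (fun _ => trivial : _ → True) @Cfsg.agConjFamily.congr_simp.{0}
  have := (fun _ => trivial : _ → True) @Cfsg.calX.eq_1.{0}
  have := (fun _ => trivial : _ → True) @Cfsg.calX.eq_def.{0}
  have := (fun _ => trivial : _ → True) @Cfsg.calX.congr_simp.{0}
  have := (fun _ => trivial : _ → True) @Cfsg.InResidualCase.eq_1.{0}
  have := (fun _ => trivial : _ → True) @Cfsg.InResidualCase.eq_def.{0}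
  have := (fun _ => trivial : _ → True) @Cfsg.InResidualCase.congr_simp.{0}
  have := (fun _ => trivial : _ → True) @Cfsg.moduleV.eq_1.{0}
  have := (fun _ => trivial : _ → True) @Cfsg.moduleV.eq_def.{0}
  have := (fun _ => trivial : _ → True) @Cfsg.moduleV.congr_simp.{0}
  have := (fun _ => trivial : _ → True) @Cfsg.IsLieRankTwoCharTwo.eq_1.{0}
  have := (fun _ => trivial : _ → True) @Cfsg.IsLieRankTwoCharTwo.eq_def.{0}
  have := (fun _ => trivial : _ → True) @Cfsg.IsLieRankTwoCharTwo.congr_simp.{0}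
  have := (fun _ => trivial : _ → True) @Cfsg.calXf.eq_1.{0}
  have := (fun _ => trivial : _ → True) @Cfsg.calXf.eq_def.{0}
  have := (fun _ => trivial : _ → True) @Cfsg.calXf.congr_simp.{0}
  have := (fun _ => trivial : _ → True) @Cfsg.calHe.eq_1.{0}
  have := (fun _ => trivial : _ → True) @Cfsg.calHe.eq_def.{0}
  have := (fun _ => trivial : _ → True) @Cfsg.calHe.congr_simp.{0}
  have := (fun _ => trivial : _ → True) @Cfsg.calLfMax.eq_1.{0}
  have := (fun _ => trivial : _ → True) @Cfsg.calLfMax.eq_def.{0}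
  have := (fun _ => trivial : _ → True) @Cfsg.calLfMax.congr_simp.{0}
  have := (fun _ => trivial : _ → True) @Cfsg.blockStabilizerS4wr2.eq_1
  have := (fun _ => trivial : _ → True) @Cfsg.blockStabilizerS4wr2.eq_def
  have := (fun _ => trivial : _ → True) @Cfsg.blockStabilizerS4wr2.congr_simp
  have := (fun _ => trivial : _ → True) @Cfsg.pCoreTwoOf.eq_1.{0}
  have := (fun _ => trivial : _ → True) @Cfsg.pCoreTwoOf.eq_def.{0}
  have := (fun _ => trivial : _ → True) @Cfsg.pCoreTwoOf.congr_simp.{0}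
  have := (fun _ => trivial : _ → True) @Cfsg.calLf.eq_1.{0}
  have := (fun _ => trivial : _ → True) @Cfsg.calLf.eq_def.{0}
  have := (fun _ => trivial : _ → True) @Cfsg.calLf.congr_simp.{0}
  have := (fun _ => trivial : _ → True) @Cfsg.twoZCore.eq_1.{0}
  have := (fun _ => trivial : _ → True) @Cfsg.twoZCore.eq_def.{0}
  have := (fun _ => trivial : _ → True) @Cfsg.twoZCore.congr_simp.{0}
  have := (fun _ => trivial : _ → True) @Cfsg.IsHatA6.eq_1.{0}
  have := (fun _ => trivial : _ → True) @Cfsg.IsHatA6.eq_def.{0}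
  have := (fun _ => trivial : _ → True) @Cfsg.IsHatA6.congr_simp.{0}
  trivial
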